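import Cfsg.Agent.H86.HTest
import Cfsg.Agent.H82.TwE6
import Cfsg.Agent.H82.TwD4

/-!
# The element of order six in characteristic two, twisted groups (helper655, for helper28)

* `HTP` : the hypothesis of `even_opp`
* `htp_of` : from `a`, `b = x_γ(1)`, `c = x_{-γ}(1)` and `n`
* `move` : `n_{-δ}(1)` moves `x_τ(1)` to `x_γ(1)`, `γ = τ - δ`
* `ht_e6`, `ht_d4`
-/

set_option autoImplicit false

namespace Cfsg.Agent.H655.TwOv

open Cfsg.Lie Cfsg.Agent.ChevalleyStructure Cfsg.Agent.ChevalleyStructure.Elts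
open Cfsg.Agent.ChevalleyStructure.RootCombGood (co car)
open Cfsg.Agent.H92.ChevFrob (fr fr_xG)
open Cfsg.Agent.H86.Graded (Q xG_mem_Q)
open Cfsg.Agent.H86.Par (top tri eq_of_xG_eq)
open Cfsg.Agent.H82.Level (SL add kap comm_X cf Lv cf_xG cf_mul cf_one xG_mem_Lv ht)
open scoped commutatorElement

universe u

variable {D : ChevalleyDatum} {K : Type u} [Field K]

/-- an element of order six -/
def HTP (D : ChevalleyDatum) (K : Type u) [Field K] (hD : InList D) (ψ : K →+* K) (H : Subgroup (GL D.Idx K)) : Prop :=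
  ∃ t ∈ H, fr D ψ t = t ∧ t ∈ Q D K (top D) ∧ t ≠ 1 ∧ t * t = 1 ∧ ∃ m ∈ H,
    (t * (m⁻¹ * xG hD (top D) 1 * m)) ^ 6 = 1 ∧ (t * (m⁻¹ * xG hD (top D) 1 * m)) ^ 2 ≠ 1 ∧
      (t * (m⁻¹ * xG hD (top D) 1 * m)) ^ 3 ≠ 1

theorem sq_one (hD : InList D) [CharP K 2] (r : ℕ) : (xG hD r (1 : K)) * xG hD r 1 = 1 := by
  rw [xG_add, CharTwo.add_self_eq_zero, xG_zero]

/-- from the elements -/
theorem htp_of (hD : InList D) [CharP K 2] {ψ : K →+* K} {H : Subgroup (GL D.Idx K)} {γ : ℕ} (hγ : γ < D.nroots)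
    {a n : GL D.Idx K} (haH : a ∈ H) (haQ : a ∈ Q D K (top D)) (hψ : fr D ψ a = a) (haa : a * a = 1) (ha1 : a ≠ 1)
    (hab : Commute a (xG hD γ 1)) (hac : Commute a (xG hD (D.neg γ) 1)) (hbH : xG hD γ 1 ∈ H)
    (hbQ : xG hD γ (1 : K) ∈ Q D K (top D)) (hne : a ≠ xG hD γ 1) (hn : n ∈ H)
    (he : n * xG hD (top D) 1 * n⁻¹ = xG hD (D.neg γ) 1) : HTP D K hD ψ H := by
  have G : RootCombGood.Good D := RootComb.good_of_mem hD
  have hbb := sq_one (K := K) hD γ
  have hcc := sq_one (K := K) hD (D.neg γ)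
  have htri := tri (F := K) hD hγ
  have hbψ : fr D ψ (xG hD γ (1 : K)) = xG hD γ 1 := by rw [fr_xG, map_one]
  have hbc : xG hD γ (1 : K) * xG hD (D.neg γ) 1 ≠ 1 := by
    intro h3
    have h5 : xG hD γ (1 : K) = xG hD (D.neg γ) 1 := by
      calc xG hD γ (1 : K) = xG hD γ 1 * (xG hD (D.neg γ) 1 * xG hD (D.neg γ) 1) := by rw [hcc, mul_one]
        _ = xG hD (D.neg γ) 1 := by rw [← mul_assoc, h3, one_mul]
    exact RootWord.neg_ne G hγ (eq_of_xG_eq hD hγ (RootWord.neg_lt G hγ) one_ne_zero h5)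
  generalize xG hD γ (1 : K) = b at *
  generalize xG hD (D.neg γ) (1 : K) = c at *
  have key : a * b * ((n⁻¹)⁻¹ * xG hD (top D) 1 * n⁻¹) = a * (b * c) := by
    rw [inv_inv, he, mul_assoc]
  have hcomm : Commute a (b * c) := hab.mul_right hac
  have hpow : ∀ k : ℕ, (a * b * ((n⁻¹)⁻¹ * xG hD (top D) 1 * n⁻¹)) ^ k = a ^ k * (b * c) ^ k := by
    intro k
    rw [key, hcomm.mul_pow]
  refine ⟨a * b, mul_mem haH hbH, by rw [map_mul, hψ, hbψ], mul_mem haQ hbQ, ?_, ?_, n⁻¹, inv_mem hn, ?_, ?_, ?_⟩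
  · intro h
    apply hne
    calc a = a * b * b := by rw [mul_assoc, hbb, mul_one]
      _ = b := by rw [h, one_mul]
  · calc a * b * (a * b) = a * (b * a) * b := by group
      _ = (a * a) * (b * b) := by rw [← hab.eq]; group
      _ = 1 := by rw [haa, hbb, one_mul]
  · rw [hpow, show (6 : ℕ) = 3 * 2 from rfl, pow_mul (b * c), htri, show (3 * 2 : ℕ) = 2 * 3 from rfl, pow_mul a,
      pow_two a, haa, one_pow, one_pow, one_mul]
  · rw [hpow, pow_two a, haa, one_mul]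
    intro h3
    apply hbc
    calc b * c = (b * c) ^ 3 * ((b * c) ^ 2)⁻¹ := by group
      _ = 1 := by rw [htri, h3, inv_one, one_mul]
  · rw [hpow, htri, mul_one]
    intro h3
    apply ha1
    calc a = a ^ 3 * (a * a)⁻¹ := by group
      _ = 1 := by rw [h3, haa, inv_one, one_mul]

/-- the commutator formula in characteristic two -/
theorem comm_two (hD : InList D) (h : SL D) [CharP K 2] {r s v : ℕ} (hr : r < D.nroots) (hs : s < D.nroots)
    (hv : v < D.nroots) (hrs : s ≠ r) (hneg : s ≠ D.neg r) (hadd : add D r s = v) :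
    xG hD r (1 : K) * xG hD s 1 * xG hD r 1 * xG hD s 1 = xG hD s 1 * xG hD v 1 * xG hD s 1 := by
  have h1 := comm_X (K := K) hD h hr hs hrs hneg 1 1
  have hk : ((kap D r s : ℤ) : K) = 1 := by
    rcases h.comm r hr s hs hrs hneg with ⟨-, h3⟩ | ⟨-, -, h3, -⟩
    · omega
    · rcases h3 with h3 | h3 <;> rw [h3]
      · exact Int.cast_one
      · rw [Int.cast_neg, Int.cast_one, CharTwo.neg_eq]
  have i1 : ∀ r : ℕ, (xG hD r (1 : K))⁻¹ = xG hD r 1 := fun r => by
    rw [inv_eq_iff_mul_eq_one]; exact sq_one hD r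
  rw [hadd, hk, mul_one, mul_one, commutatorElement_def, i1, i1] at h1
  exact h1

theorem comm_none (hD : InList D) (h : SL D) {r s : ℕ} (hr : r < D.nroots) (hs : s < D.nroots)
    (hrs : s ≠ r) (hneg : s ≠ D.neg r) (hadd : add D r s = D.nroots) (t u : K) :
    Commute (xG hD r t) (xG hD s u) := by
  have h1 := comm_X (K := K) hD h hr hs hrs hneg t u
  rw [hadd, xG_of_not_lt hD (lt_irrefl D.nroots), mul_one, mul_inv_cancel] at h1
  exact commutatorElement_eq_one_iff_commute.1 h1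

/-- `n_{-δ}(1)` moves `x_τ(1)` to `x_γ(1)` -/
theorem move (hD : InList D) (h : SL D) [CharP K 2] {γ δ τ : ℕ} (hγ : γ < D.nroots) (hδ : δ < D.nroots)
    (hτ : τ < D.nroots) (h1 : D.neg δ ≠ τ) (h1' : D.neg δ ≠ D.neg τ) (e1 : add D τ (D.neg δ) = γ)
    (h2 : τ ≠ δ) (h2' : τ ≠ D.neg δ) (e2 : add D δ τ = D.nroots)
    (h3 : δ ≠ γ) (h3' : δ ≠ D.neg γ) (e3 : add D γ δ = τ)
    (h4 : D.neg δ ≠ γ) (h4' : D.neg δ ≠ D.neg γ) (e4 : add D γ (D.neg δ) = D.nroots)
    (h5 : γ ≠ τ) (h5' : γ ≠ D.neg τ) (e5 : add D τ γ = D.nroots) :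
    (xG hD (D.neg δ) (1 : K) * xG hD δ 1 * xG hD (D.neg δ) 1) * xG hD τ 1 *
      (xG hD (D.neg δ) 1 * xG hD δ 1 * xG hD (D.neg δ) 1)⁻¹ = xG hD γ 1 := by
  have G : RootCombGood.Good D := RootComb.good_of_mem hD
  have hn := RootWord.neg_lt G hδ
  have r1 := comm_two (K := K) hD h hτ hn hγ h1 h1' e1
  have r2 := comm_none (K := K) hD h hδ hτ h2 h2' e2 1 1
  have r3 := comm_two (K := K) hD h hγ hδ hτ h3 h3' e3
  have r4 := comm_none (K := K) hD h hγ hn h4 h4' e4 1 1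
  have r5 := comm_none (K := K) hD h hτ hγ h5 h5' e5 1 1
  have sT := sq_one (K := K) hD τ
  have sC := sq_one (K := K) hD γ
  have sY := sq_one (K := K) hD δ
  have sZ := sq_one (K := K) hD (D.neg δ)
  generalize xG hD τ (1 : K) = T at *
  generalize xG hD γ (1 : K) = C at *
  generalize xG hD δ (1 : K) = Y at *
  generalize xG hD (D.neg δ) (1 : K) = Z at *
  have hinv : (Z * Y * Z)⁻¹ = Z * Y * Z := by
    rw [inv_eq_iff_mul_eq_one]
    calc Z * Y * Z * (Z * Y * Z) = Z * Y * (Z * Z) * Y * Z := by group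
      _ = 1 := by rw [sZ, mul_one, mul_assoc Z, sY, mul_one, sZ]
  have a1 : Z * T * Z = T * C := by
    have : T * Z * T * Z = C := by rw [r1, ← r4.eq, mul_assoc, sZ, mul_one]
    calc Z * T * Z = (T * T) * Z * T * Z := by rw [sT, one_mul]
      _ = T * (T * Z * T * Z) := by group
      _ = T * C := by rw [this]
  have a2 : Y * C * Y = C * T := by
    have : C * Y * C * Y = T := by rw [r3, r2.eq, mul_assoc, sY, mul_one]
    calc Y * C * Y = (C * C) * Y * C * Y := by rw [sC, one_mul]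
      _ = C * (C * Y * C * Y) := by group
      _ = C * T := by rw [this]
  have a3 : Y * (T * C) * Y = C := by
    calc Y * (T * C) * Y = (Y * T) * C * Y := by group
      _ = T * (Y * C * Y) := by rw [r2.eq]; group
      _ = T * C * T := by rw [a2]; group
      _ = C * (T * T) := by rw [r5.eq]; group
      _ = C := by rw [sT, mul_one]
  rw [hinv]
  calc Z * Y * Z * T * (Z * Y * Z) = Z * (Y * (Z * T * Z) * Y) * Z := by group
    _ = Z * C * Z := by rw [a1, a3]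
    _ = C * (Z * Z) := by rw [← r4.eq]; group
    _ = C := by rw [sZ, mul_one]

/-- `n_γ(1)` moves `x_γ(1)` to `x_{-γ}(1)` -/
theorem move_neg (hD : InList D) [CharP K 2] {γ : ℕ} (hγ : γ < D.nroots) :
    (xG hD γ (1 : K) * xG hD (D.neg γ) 1 * xG hD γ 1) * xG hD γ 1 *
      (xG hD γ 1 * xG hD (D.neg γ) 1 * xG hD γ 1)⁻¹ = xG hD (D.neg γ) 1 := by
  have sB := sq_one (K := K) hD γ
  have sC := sq_one (K := K) hD (D.neg γ)
  have ht := tri (F := K) hD hγ
  generalize xG hD γ (1 : K) = B at *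
  generalize xG hD (D.neg γ) (1 : K) = C at *
  have hinv : (B * C * B)⁻¹ = B * C * B := by
    rw [inv_eq_iff_mul_eq_one]
    calc B * C * B * (B * C * B) = B * C * (B * B) * C * B := by group
      _ = 1 := by rw [sB, mul_one, mul_assoc B, sC, mul_one, sB]
  rw [hinv]
  have h1 : B * C * B = C * B * C := by
    have h2 : B * C * B * (C * B * C) = 1 := by
      rw [← ht, pow_succ, pow_two]
      simp only [mul_assoc]
    have h3 : C * B * C * (C * B * C) = 1 := by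
      calc C * B * C * (C * B * C) = C * B * (C * C) * B * C := by group
        _ = 1 := by rw [sC, mul_one, mul_assoc C, sB, mul_one, sC]
    calc B * C * B = B * C * B * (C * B * C * (C * B * C)) := by rw [h3, mul_one]
      _ = (B * C * B * (C * B * C)) * (C * B * C) := by group
      _ = C * B * C := by rw [h2, one_mul]
  calc B * C * B * B * (B * C * B) = B * C * B * (B * B) * C * B := by group
    _ = (B * C * B) * (C * B) := by rw [sB, mul_one]; group
    _ = C * B * (C * C) * B := by rw [h1]; group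
    _ = C := by rw [sC, mul_one, mul_assoc, sB, mul_one]

/-- the product of `n_γ(1)` and `n_{-δ}(1)` -/
theorem htp_of_table (hD : InList D) (h : SL D) [CharP K 2] {ψ : K →+* K} {H : Subgroup (GL D.Idx K)} {γ δ : ℕ}
    (hγ : γ < D.nroots) (hδ : δ < D.nroots)
    (h1 : D.neg δ ≠ top D ∧ D.neg δ ≠ D.neg (top D) ∧ add D (top D) (D.neg δ) = γ ∧
      top D ≠ δ ∧ top D ≠ D.neg δ ∧ add D δ (top D) = D.nroots ∧
      δ ≠ γ ∧ δ ≠ D.neg γ ∧ add D γ δ = top D ∧ D.neg δ ≠ γ ∧ D.neg δ ≠ D.neg γ ∧ add D γ (D.neg δ) = D.nroots ∧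
      γ ≠ top D ∧ γ ≠ D.neg (top D) ∧ add D (top D) γ = D.nroots ∧ 1 ≤ car D (top D) γ)
    (hH : ∀ s, s = γ ∨ s = D.neg γ ∨ s = δ ∨ s = D.neg δ → xG hD s (1 : K) ∈ H)
    {a : GL D.Idx K} (haH : a ∈ H) (haQ : a ∈ Q D K (top D)) (hψ : fr D ψ a = a) (haa : a * a = 1) (ha1 : a ≠ 1)
    (hab : Commute a (xG hD γ 1)) (hac : Commute a (xG hD (D.neg γ) 1)) (hne : a ≠ xG hD γ 1) : HTP D K hD ψ H := by
  obtain ⟨a1, a2, a3, b1, b2, b3, c1, c2, c3, d1, d2, d3, e1, e2, e3, f⟩ := h1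
  have g1 := hH γ (Or.inl rfl)
  have g2 := hH (D.neg γ) (Or.inr (Or.inl rfl))
  have g3 := hH δ (Or.inr (Or.inr (Or.inl rfl)))
  have g4 := hH (D.neg δ) (Or.inr (Or.inr (Or.inr rfl)))
  refine htp_of hD hγ haH haQ hψ haa ha1 hab hac g1 (xG_mem_Q hD hγ f 1) hne
    (n := (xG hD γ (1 : K) * xG hD (D.neg γ) 1 * xG hD γ 1) *
      (xG hD (D.neg δ) (1 : K) * xG hD δ 1 * xG hD (D.neg δ) 1))
    (mul_mem (mul_mem (mul_mem g1 g2) g1) (mul_mem (mul_mem g4 g3) g4)) ?_
  have m1 := move (K := K) hD h hγ hδ (Cfsg.Agent.H86.Par.top_lt hD) a1 a2 a3 b1 b2 b3 c1 c2 c3 d1 d2 d3 e1 e2 e3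
  have m2 := move_neg (K := K) hD hγ
  calc _ = (xG hD γ (1 : K) * xG hD (D.neg γ) 1 * xG hD γ 1) *
        ((xG hD (D.neg δ) (1 : K) * xG hD δ 1 * xG hD (D.neg δ) 1) * xG hD (top D) 1 *
          (xG hD (D.neg δ) 1 * xG hD δ 1 * xG hD (D.neg δ) 1)⁻¹) *
        (xG hD γ (1 : K) * xG hD (D.neg γ) 1 * xG hD γ 1)⁻¹ := by group
    _ = _ := by rw [m1, m2]

section E6

open Cfsg.Agent.ChevalleyStructure.TwistedE6Sigma (rho eps)
open Cfsg.Agent.ChevalleyStructure.TwE6Basic (hE6)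

/-- **`²E₆`** -/
theorem ht_e6 {K : Type u} [Field K] [CharP K 2] (ψ : K →+* K) {H : Subgroup (GL chevE6.Idx K)}
    (hR : ∀ s < chevE6.nroots, rho s = s → ∀ c : K, c = 1 ∨ c = -1 → xG hE6 s c ∈ H) : HTP chevE6 K hE6 ψ H := by
  have e46 : chevE6.neg 46 = 25 := by decide +kernel
  have e70 : chevE6.neg 70 = 1 := by decide +kernel
  refine htp_of_table hE6 Cfsg.Agent.H82.TwE6.slE6 (γ := 46) (δ := 70) (by decide) (by decide) (by decide +kernel)
    (fun s hs => hR s ?_ ?_ 1 (Or.inl rfl)) (a := xG hE6 53 1) (hR 53 (by decide) (by decide +kernel) 1 (Or.inl rfl))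
    (xG_mem_Q hE6 (by decide) (by decide +kernel) 1) (by rw [fr_xG, map_one]) (sq_one hE6 53) ?_ ?_ ?_ ?_
  · rw [e46, e70] at hs
    rcases hs with rfl | rfl | rfl | rfl <;> decide
  · rw [e46, e70] at hs
    rcases hs with rfl | rfl | rfl | rfl <;> decide +kernel
  · intro h0
    exact one_ne_zero ((xG_eq_one_iff hE6 (by decide) _).1 h0)
  · exact comm_none hE6 Cfsg.Agent.H82.TwE6.slE6 (by decide) (by decide) (by decide) (by decide +kernel) (by decide +kernel) 1 1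
  · rw [e46]
    exact comm_none hE6 Cfsg.Agent.H82.TwE6.slE6 (by decide) (by decide) (by decide) (by decide +kernel) (by decide +kernel) 1 1
  · intro h0
    exact absurd (eq_of_xG_eq hE6 (by decide) (by decide) one_ne_zero h0) (by decide)

end E6

section D4

open Cfsg.Agent.H82.TwD4 (rho eps hD4 slD4 sig_X)
open Cfsg.Agent.ChevalleyStructure.D4Fixed (sig)

/-- **`³D₄`** -/
theorem ht_d4 {K : Type u} [Field K] [CharP K 2] (φ ψ : K →+* K) {H : Subgroup (GL chevD4.Idx K)}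
    (hR : ∀ s < chevD4.nroots, rho s = s → ∀ c : K, c = 1 ∨ c = -1 → xG hD4 s c ∈ H)
    (hU : ∀ u ∈ chevD4.posUnipotent K, sig φ u = u → fr chevD4 ψ u = u → u ∈ H) : HTP chevD4 K hD4 ψ H := by
  have e14 : chevD4.neg 14 = 9 := by decide +kernel
  have e22 : chevD4.neg 22 = 1 := by decide +kernel
  have hp17 : chevD4.IsPosRoot 17 := Cfsg.Agent.H82.TwD4.pos_of_mem (by decide)
  have hp20 : chevD4.IsPosRoot 20 := Cfsg.Agent.H82.TwD4.pos_of_mem (by decide)
  have hp21 : chevD4.IsPosRoot 21 := Cfsg.Agent.H82.TwD4.pos_of_mem (by decide)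
  have c1 : Commute (xG hD4 17 (1 : K)) (xG hD4 20 1) :=
    comm_none hD4 slD4 (by decide) (by decide) (by decide) (by decide +kernel) (by decide +kernel) 1 1
  have c2 : Commute (xG hD4 17 (1 : K)) (xG hD4 21 1) :=
    comm_none hD4 slD4 (by decide) (by decide) (by decide) (by decide +kernel) (by decide +kernel) 1 1
  have c3 : Commute (xG hD4 20 (1 : K)) (xG hD4 21 1) :=
    comm_none hD4 slD4 (by decide) (by decide) (by decide) (by decide +kernel) (by decide +kernel) 1 1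
  have s1 := sq_one (K := K) hD4 17
  have s2 := sq_one (K := K) hD4 20
  have s3 := sq_one (K := K) hD4 21
  have o1 : ∀ z : ℤ, z = 1 ∨ z = -1 → ((z : ℤ) : K) = 1 := by
    rintro z (rfl | rfl)
    · exact Int.cast_one
    · rw [Int.cast_neg, Int.cast_one, CharTwo.neg_eq]
  have g1 : sig φ (xG hD4 17 (1 : K)) = xG hD4 20 1 := by
    have h1 := sig_X φ 17 hp17 (1 : K)
    rw [map_one, mul_one, o1 _ (by decide)] at h1
    exact h1
  have g2 : sig φ (xG hD4 20 (1 : K)) = xG hD4 21 1 := by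
    have h1 := sig_X φ 20 hp20 (1 : K)
    rw [map_one, mul_one, o1 _ (by decide)] at h1
    exact h1
  have g3 : sig φ (xG hD4 21 (1 : K)) = xG hD4 17 1 := by
    have h1 := sig_X φ 21 hp21 (1 : K)
    rw [map_one, mul_one, o1 _ (by decide)] at h1
    exact h1
  obtain ⟨a, ha⟩ : ∃ a : GL chevD4.Idx K, a = xG hD4 17 1 * xG hD4 20 1 * xG hD4 21 1 := ⟨_, rfl⟩
  have haU : a ∈ chevD4.posUnipotent K := by
    rw [ha]
    exact mul_mem (mul_mem (xG_mem_posUnipotent hD4 hp17 1) (xG_mem_posUnipotent hD4 hp20 1))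
      (xG_mem_posUnipotent hD4 hp21 1)
  have hsig : sig φ a = a := by
    rw [ha, map_mul, map_mul, g1, g2, g3, mul_assoc, ← c2.eq, ← mul_assoc, ← c1.eq]
  have hfr : fr chevD4 ψ a = a := by rw [ha, map_mul, map_mul, fr_xG, fr_xG, fr_xG, map_one]
  have haa : a * a = 1 := by
    rw [ha]
    calc xG hD4 17 (1 : K) * xG hD4 20 1 * xG hD4 21 1 * (xG hD4 17 1 * xG hD4 20 1 * xG hD4 21 1) = 
        xG hD4 17 (1 : K) * (xG hD4 20 1 * (xG hD4 21 1 * xG hD4 17 1)) * xG hD4 20 1 * xG hD4 21 1 := by group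
      _ = xG hD4 17 (1 : K) * ((xG hD4 20 1 * xG hD4 17 1) * xG hD4 21 1) * xG hD4 20 1 * xG hD4 21 1 := by
          rw [← c2.eq]; group
      _ = (xG hD4 17 (1 : K) * xG hD4 17 1) * xG hD4 20 1 * (xG hD4 21 1 * xG hD4 20 1) * xG hD4 21 1 := by
          rw [← c1.eq]; group
      _ = (xG hD4 17 (1 : K) * xG hD4 17 1) * (xG hD4 20 1 * xG hD4 20 1) * (xG hD4 21 1 * xG hD4 21 1) := by
          rw [← c3.eq]; group
      _ = 1 := by rw [s1, s2, s3, mul_one, mul_one]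
  have hcf : cf 17 a = 1 := by
    have h17 : ht chevD4 17 = 3 := by decide +kernel
    have h20 : ht chevD4 20 = 3 := by decide +kernel
    have h21 : ht chevD4 21 = 3 := by decide +kernel
    have m1 : xG hD4 17 (1 : K) ∈ Lv K hD4 slD4 3 := by rw [← h17]; exact xG_mem_Lv hD4 slD4 hp17 1
    have m2 : xG hD4 20 (1 : K) ∈ Lv K hD4 slD4 3 := by rw [← h20]; exact xG_mem_Lv hD4 slD4 hp20 1
    have m3 : xG hD4 21 (1 : K) ∈ Lv K hD4 slD4 3 := by rw [← h21]; exact xG_mem_Lv hD4 slD4 hp21 1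
    rw [ha, cf_mul hD4 slD4 (mul_mem m1 m2) m3 (by rw [h17]; norm_num), cf_mul hD4 slD4 m1 m2 (by rw [h17]; norm_num),
      cf_xG hD4 slD4 (by decide) (by decide), cf_xG hD4 slD4 (by decide) (by decide),
      cf_xG hD4 slD4 (by decide) (by decide), if_pos rfl, if_neg (by decide), if_neg (by decide), add_zero, add_zero]
  have hcom : ∀ s < chevD4.nroots, (s ≠ 17 ∧ s ≠ chevD4.neg 17 ∧ add chevD4 17 s = chevD4.nroots) →
      (s ≠ 20 ∧ s ≠ chevD4.neg 20 ∧ add chevD4 20 s = chevD4.nroots) →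
      (s ≠ 21 ∧ s ≠ chevD4.neg 21 ∧ add chevD4 21 s = chevD4.nroots) → Commute a (xG hD4 s (1 : K)) := by
    intro s hs h1 h2 h3
    rw [ha]
    exact ((comm_none hD4 slD4 (by decide) hs h1.1 h1.2.1 h1.2.2 1 1).mul_left
      (comm_none hD4 slD4 (by decide) hs h2.1 h2.2.1 h2.2.2 1 1)).mul_left
      (comm_none hD4 slD4 (by decide) hs h3.1 h3.2.1 h3.2.2 1 1)
  refine htp_of_table hD4 slD4 (γ := 14) (δ := 22) (by decide) (by decide) (by decide +kernel)
    (fun s hs => hR s ?_ ?_ 1 (Or.inl rfl)) (a := a) (hU a haU hsig hfr) ?_ hfr haa ?_ ?_ ?_ ?_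
  · rw [e14, e22] at hs
    rcases hs with rfl | rfl | rfl | rfl <;> decide
  · rw [e14, e22] at hs
    rcases hs with rfl | rfl | rfl | rfl <;> decide +kernel
  · rw [ha]
    exact mul_mem (mul_mem (xG_mem_Q hD4 (by decide) (by decide +kernel) 1) (xG_mem_Q hD4 (by decide) (by decide +kernel) 1))
      (xG_mem_Q hD4 (by decide) (by decide +kernel) 1)
  · intro h0
    rw [h0, cf_one] at hcf
    exact zero_ne_one hcf
  · exact hcom 14 (by decide) (by decide +kernel) (by decide +kernel) (by decide +kernel)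
  · rw [e14]
    exact hcom 9 (by decide) (by decide +kernel) (by decide +kernel) (by decide +kernel)
  · intro h0
    rw [h0, cf_xG hD4 slD4 (by decide) (by decide), if_neg (by decide)] at hcf
    exact zero_ne_one hcf

end D4

end Cfsg.Agent.H655.TwOv
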